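import Mathlib
import Cfsg.Agent.Lib.Helper6.SUG.Q2Defs

/-!
# Project SUG (S2412), block [Q2]: packages [Q2-OM], [Q2-F4], [Q2-ROT]

Field facts for the field with four elements, and the pure `Fin` fact that a non-empty subset of
`Fin n` closed under `finRotate n` is everything.
-/

set_option autoImplicit false

namespace Cfsg.Agent.Lib.Helper15.SUG

open Cfsg.Agent.Lib.Helper6.SUG

universe u

/-- In a field with four elements every non-zero element is a cube root of unity. -/
theorem f4_cube {F : Type u} [Field F] [Fintype F] (hF : Fintype.card F = 2 ^ 2) (x : F)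
    (hx : x ≠ 0) : x ^ 3 = 1 := by
  have h := FiniteField.pow_card_sub_one_eq_one x hx
  rw [hF] at h
  norm_num at h
  exact h

/-- [Q2-OM] -/
theorem pkgQ2Om : PkgQ2Om.{u} := by
  intro F _ _ hF
  classical
  by_contra hcon
  push Not at hcon
  have hsub : (Finset.univ : Finset F) ⊆ {0, 1} := by
    intro x _
    by_cases hx : x = 0
    · simp [hx]
    · have h1 : x = 1 := by
        by_contra h1
        exact hcon x h1 (f4_cube hF x hx)
      simp [h1]
  have h1 := Finset.card_le_card hsub
  rw [Finset.card_univ, hF] at h1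
  have h2 : ({0, 1} : Finset F).card ≤ 2 := Finset.card_insert_le _ _
  have h3 : (2 : ℕ) ^ 2 = 4 := by norm_num
  rw [h3] at h1
  omega

/-- [Q2-F4] -/
theorem pkgQ2F4 : PkgQ2F4.{u} := by
  intro F _ _ hF ω hω1 hω3
  classical
  have h2 : (2 : F) = 0 := by
    have h4 : ((Fintype.card F : ℕ) : F) = 0 := FiniteField.cast_card_eq_zero F
    rw [hF] at h4
    have h5 : (2 : F) * 2 = 0 := by
      have h6 : (((2 ^ 2 : ℕ) : ℕ) : F) = 2 * 2 := by norm_num
      rw [← h6]; exact h4
    exact mul_self_eq_zero.mp h5
  have hω0 : ω ≠ 0 := by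
    rintro rfl
    norm_num at hω3
  have hquad : ω ^ 2 + ω + 1 = 0 := by
    have h5 : (ω - 1) * (ω ^ 2 + ω + 1) = 0 := by linear_combination hω3
    rcases mul_eq_zero.mp h5 with h | h
    · exact absurd (sub_eq_zero.mp h) hω1
    · exact h
  refine ⟨h2, hω0, hquad, fun x hx => f4_cube hF x hx, ?_⟩
  intro x
  by_cases hx : x = 0
  · exact Or.inl hx
  · right
    have h3x := f4_cube hF x hx
    have h5 : (x - 1) * (x - ω) * (x - ω ^ 2) = 0 := by
      linear_combination h3x - x ^ 2 * hquad + x * hquad + (x - 1) * hω3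
    rcases mul_eq_zero.mp h5 with h | h
    · rcases mul_eq_zero.mp h with h | h
      · exact Or.inl (sub_eq_zero.mp h)
      · exact Or.inr (Or.inl (sub_eq_zero.mp h))
    · exact Or.inr (Or.inr (sub_eq_zero.mp h))

/-- [Q2-ROT] -/
theorem pkgQ2Rot : PkgQ2Rot := by
  intro n S hS hne j
  obtain ⟨j₀, hj₀⟩ := hne
  cases n with
  | zero => exact j.elim0
  | succ n =>
    have step : ∀ d : ℕ, ∀ i : Fin (n + 1), i ∈ S → ∀ h : i.val + d < n + 1,
        (⟨i.val + d, h⟩ : Fin (n + 1)) ∈ S := by
      intro d
      induction d with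
      | zero =>
        intro i hi h
        exact hi
      | succ d ih =>
        intro i hi h
        have h' : i.val + d < n + 1 := by omega
        have hmem := ih i hi h'
        have hrot := hS _ hmem
        have hlt : i.val + d < n := by omega
        have e : finRotate (n + 1) ⟨i.val + d, h'⟩ = ⟨i.val + (d + 1), h⟩ :=
          finRotate_of_lt hlt
        rw [e] at hrot
        exact hrot
    have hlast : (⟨n, Nat.lt_succ_self n⟩ : Fin (n + 1)) ∈ S := by
      have hj := j₀.2
      have h1 := step (n - j₀.val) j₀ hj₀ (by omega)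
      have e : (⟨j₀.val + (n - j₀.val), by omega⟩ : Fin (n + 1)) = ⟨n, Nat.lt_succ_self n⟩ :=
        Fin.ext (by show j₀.val + (n - j₀.val) = n; omega)
      rw [e] at h1
      exact h1
    have h0 : (⟨0, Nat.succ_pos n⟩ : Fin (n + 1)) ∈ S := by
      have h1 := hS _ hlast
      rw [finRotate_last'] at h1
      exact h1
    have hj := j.2
    have h1 := step j.val ⟨0, Nat.succ_pos n⟩ h0 (by show 0 + j.val < n + 1; omega)
    have e : (⟨0 + j.val, by omega⟩ : Fin (n + 1)) = j :=
      Fin.ext (by show 0 + j.val = j.val; omega)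
    rw [e] at h1
    exact h1

end Cfsg.Agent.Lib.Helper15.SUG
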